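import Cfsg.Agent.Lib.GW.PNm2
import Cfsg.Agent.Lib.GW.Ch7

/-! Case II: the facts (1)-(4) as an interface. -/

namespace Cfsg.Agent.GW

open Subgroup FT SF.GP SF.T TwoGrp

universe u

/-- facts (1)-(4) of case II -/
structure C2H {G : Type u} [Group G] [Finite G] (P : PG G) (p : ℕ) : Prop where
  p2 : p ≠ 2
  pd : ∀ Y, Y ≠ ⊥ → Y ≤ core {p} P.Dw ⊓ P.B → ∃ Q, P.Same Q ∧ Q.PT 𝐍(Y) ∧ P.t ∈ 𝐂(𝐎(𝐍(Y)))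
  uw : ¬ p ∣ 𝐂[P.w].relIndex P.U
  k1 : ¬ p ∣ P.k1
  UN : P.U ≤ core {p}ᶜ P.U ⊔ P.B ⊓ P.D0
  lk : ∀ a ∈ core {p} P.Dw ⊓ P.B, orderOf a = p → p < 𝐍(zpowers a).relIndex P.D0

/-- steps (1)-(4) -/
def C2aStmt : Prop := ∀ (G : Type u) [Group G] [Finite G] (P : PG G), Mn P → IsCoatom 𝐂[P.w] →
  ∀ p : ℕ, p.Prime → core {p} P.Dw ⊓ P.B ≠ ⊥ → C2H P p

/-- step (5) -/
def C2bStmt : Prop := ∀ (G : Type u) [Group G] [Finite G] (P : PG G), Mn P →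
  ∀ p : ℕ, p.Prime → C2H P p → core {p} P.Dw ⊓ P.B = ⊥

theorem c2_of (h1 : C2aStmt.{u}) (h2 : C2bStmt.{u}) : C2Stmt.{u} := fun G _ _ P h hA p hp =>
  by_contra fun e => e (h2 G P h p hp (h1 G P h hA p hp e))

end Cfsg.Agent.GW
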